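import Mathlib

set_option autoImplicit false

namespace Cfsg.Agent.H64.SLIndex

open MulAction

variable {A : Type*} [CommGroup A] [Finite A] {Ω : Type*} [MulAction A Ω] [Finite Ω]

/-- All non-trivial elements fix exactly `c` points. -/
def EqualFix (A Ω : Type*) [CommGroup A] [MulAction A Ω] (c : ℕ) : Prop :=
  ∀ x : A, x ≠ 1 → Nat.card (fixedBy Ω x) = c

/-- Orbit count of a subgroup under `EqualFix`. -/
theorem card_orbits_mul {c : ℕ} (h : EqualFix A Ω c) (K : Subgroup A) :
    Nat.card (orbitRel.Quotient K Ω) * Nat.card K + c = Nat.card Ω + Nat.card K * c := by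
  classical
  have := Fintype.ofFinite A
  have := Fintype.ofFinite Ω
  have := Fintype.ofFinite K
  have := Fintype.ofFinite (orbitRel.Quotient K Ω)
  have hb := MulAction.sum_card_fixedBy_eq_card_orbits_mul_card_group K Ω
  simp only [Fintype.card_eq_nat_card] at hb
  rw [← Finset.add_sum_erase _ _ (Finset.mem_univ (1 : K))] at hb
  have h1 : Nat.card (fixedBy Ω (1 : K)) = Nat.card Ω := by
    rw [fixedBy_one_eq_univ]; exact Nat.card_congr (Equiv.Set.univ Ω)
  have h2 : ∀ x ∈ Finset.univ.erase (1 : K), Nat.card (fixedBy Ω x) = c := by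
    intro x hx
    exact h (x : A) (fun h => Finset.ne_of_mem_erase hx (Subtype.ext h))
  rw [h1, Finset.sum_congr rfl h2, Finset.sum_const, Finset.card_erase_of_mem (Finset.mem_univ _),
    Finset.card_univ, Fintype.card_eq_nat_card, smul_eq_mul] at hb
  obtain ⟨k, hk⟩ := Nat.exists_eq_add_of_le (Nat.card_pos : 0 < Nat.card K)
  rw [hk] at hb ⊢
  rw [show 1 + k - 1 = k by omega] at hb
  nlinarith

/-- Small degree forces `#orbits = c + 1` and `|Ω| = c + |A|`. -/
theorem card_eq_add {c : ℕ} (h : EqualFix A Ω c) (hc : c < Nat.card Ω)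
    (hsmall : Nat.card Ω < 2 * Nat.card A) :
    Nat.card Ω = c + Nat.card A := by
  have htop := card_orbits_mul h ⊤
  rw [Subgroup.card_top] at htop
  set a := Nat.card (orbitRel.Quotient (⊤ : Subgroup A) Ω)
  have hac : c < a := by nlinarith
  obtain ⟨j, hj⟩ := Nat.exists_eq_add_of_le hac
  have : j = 0 := by
    by_contra hj0
    have h2 : 2 * Nat.card A ≤ (1 + j) * Nat.card A := Nat.mul_le_mul_right _ (by omega)
    rw [hj] at htop
    nlinarith
  subst this
  rw [hj] at htop
  nlinarith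

/-- The orbit count of a subgroup `K` is `c + [A : K]`. -/
theorem card_orbits_eq {c : ℕ} (h : EqualFix A Ω c) (hΩ : Nat.card Ω = c + Nat.card A)
    (K : Subgroup A) : Nat.card (orbitRel.Quotient K Ω) = c + K.index := by
  have h1 := card_orbits_mul h K
  have h2 := K.card_mul_index
  have hpos : 0 < Nat.card K := Nat.card_pos
  refine Nat.eq_of_mul_eq_mul_right hpos ?_
  nlinarith

/-- The map from `K`-orbits to `A`-orbits. -/
def orbMap (K : Subgroup A) : orbitRel.Quotient K Ω → orbitRel.Quotient A Ω :=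
  Quotient.map' id fun x y hxy => by
    obtain ⟨k, rfl⟩ := hxy
    exact ⟨(k : A), rfl⟩

theorem card_orbits_top {c : ℕ} (h : EqualFix A Ω c) (hΩ : Nat.card Ω = c + Nat.card A) :
    Nat.card (orbitRel.Quotient A Ω) = c + 1 := by
  have h1 := card_orbits_eq h hΩ ⊤
  rw [Subgroup.index_top] at h1
  rw [← h1]
  refine Nat.card_congr (Quotient.congrRight fun x y => ?_)
  constructor
  · rintro ⟨a, ha⟩; exact ⟨⟨a, Subgroup.mem_top a⟩, ha⟩
  · rintro ⟨a, ha⟩; exact ⟨(a : A), ha⟩

/-- For a proper subgroup `K` some orbit has `K ⊔ stabilizer ≠ ⊤`. -/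
theorem exists_sup_ne_top {c : ℕ} (h : EqualFix A Ω c) (hΩ : Nat.card Ω = c + Nat.card A)
    {K : Subgroup A} (hK : K ≠ ⊤) : ∃ ω : Ω, K ⊔ stabilizer A ω ≠ ⊤ := by
  by_contra! hall
  have hinj : Function.Injective (orbMap (Ω := Ω) K) := by
    rintro ⟨x⟩ ⟨y⟩ hxy
    obtain ⟨a, ha⟩ := Quotient.exact' hxy
    have hmem : a ∈ K ⊔ stabilizer A y := by rw [hall y]; exact Subgroup.mem_top _
    obtain ⟨k, hk, s, hs, rfl⟩ := Subgroup.mem_sup.mp hmem
    refine Quotient.sound' ⟨⟨k, hk⟩, ?_⟩
    show k • y = x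
    have ha' : (k * s) • y = x := ha
    rw [mul_smul, mem_stabilizer_iff.mp hs] at ha'
    exact ha'
  have := Nat.card_le_card_of_injective _ hinj
  rw [card_orbits_eq h hΩ K, card_orbits_top h hΩ] at this
  have h2 : K.index = 1 := by
    have := K.index_ne_zero_of_finite
    omega
  exact hK (Subgroup.index_eq_one.mp h2)

/-- Stabilisers in two different orbits generate `A`. -/
theorem sup_stabilizer_eq_top {c : ℕ} (h : EqualFix A Ω c) (hΩ : Nat.card Ω = c + Nat.card A)
    {ω₁ ω₂ : Ω} (hne : ω₂ ∉ orbit A ω₁) : stabilizer A ω₁ ⊔ stabilizer A ω₂ = ⊤ := by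
  classical
  set K := stabilizer A ω₁ ⊔ stabilizer A ω₂
  have := Fintype.ofFinite (orbitRel.Quotient K Ω)
  have := Fintype.ofFinite (orbitRel.Quotient A Ω)
  let o₁ : orbitRel.Quotient A Ω := Quotient.mk'' ω₁
  let o₂ : orbitRel.Quotient A Ω := Quotient.mk'' ω₂
  have ho : o₁ ≠ o₂ := fun e => hne (Quotient.exact' e.symm)
  have hfib : ∀ ω : Ω, stabilizer A ω ≤ K →
      K.index ≤ (Finset.univ.filter (fun o : orbitRel.Quotient K Ω =>
        orbMap K o = Quotient.mk'' ω)).card := by
    intro ω hω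
    have := Fintype.ofFinite (A ⧸ K)
    rw [Subgroup.index, Nat.card_eq_fintype_card, ← Finset.card_univ]
    refine Finset.card_le_card_of_injOn (fun q => Quotient.mk'' (q.out • ω)) ?_ ?_
    · intro q _
      simp only [Finset.coe_filter, Finset.mem_univ, true_and, Set.mem_setOf_eq]
      exact Quotient.sound' ⟨q.out, rfl⟩
    · intro q _ q' _ hqq
      obtain ⟨k, hk⟩ := Quotient.exact' hqq
      have hk' : (k : A) • q'.out • ω = q.out • ω := hk
      rw [← mul_smul] at hk'
      have hm : q.out⁻¹ * ((k : A) * q'.out) ∈ K := hω (mem_stabilizer_iff.mpr (by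
        rw [mul_smul, hk', inv_smul_smul]))
      rw [← QuotientGroup.out_eq' q, ← QuotientGroup.out_eq' q', QuotientGroup.eq]
      have := K.mul_mem (K.inv_mem k.2) hm
      rwa [mul_left_comm (q.out⁻¹) (k : A), inv_mul_cancel_left] at this
  have h1 := hfib ω₁ le_sup_left
  have h2 := hfib ω₂ le_sup_right
  have hsum := Finset.card_eq_sum_card_fiberwise (f := orbMap (Ω := Ω) K) (s := Finset.univ)
    (t := Finset.univ) (fun x _ => Finset.mem_univ _)
  rw [← Finset.add_sum_erase _ _ (Finset.mem_univ o₁),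
    ← Finset.add_sum_erase _ _ (Finset.mem_erase.mpr ⟨ho.symm, Finset.mem_univ o₂⟩)] at hsum
  have hrest : ((Finset.univ.erase o₁).erase o₂).card ≤
      ∑ o ∈ (Finset.univ.erase o₁).erase o₂,
        (Finset.univ.filter (fun x => orbMap (Ω := Ω) K x = o)).card := by
    rw [Finset.card_eq_sum_ones]
    refine Finset.sum_le_sum fun o _ => Finset.card_pos.mpr ?_
    obtain ⟨x, rfl⟩ := Quotient.mk''_surjective o
    exact ⟨Quotient.mk'' x, Finset.mem_filter.mpr ⟨Finset.mem_univ _, rfl⟩⟩
  rw [Finset.card_erase_of_mem (Finset.mem_erase.mpr ⟨ho.symm, Finset.mem_univ o₂⟩),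
    Finset.card_erase_of_mem (Finset.mem_univ o₁), Finset.card_univ, Fintype.card_eq_nat_card,
    card_orbits_top h hΩ] at hrest
  rw [Finset.card_univ, Fintype.card_eq_nat_card, card_orbits_eq h hΩ K] at hsum
  apply Subgroup.index_eq_one.mp
  change K.index ≤ (Finset.univ.filter (fun x => orbMap (Ω := Ω) K x = o₁)).card at h1
  change K.index ≤ (Finset.univ.filter (fun x => orbMap (Ω := Ω) K x = o₂)).card at h2
  have := K.index_ne_zero_of_finite
  omega

/-- The sum of `[A : stabilizer] - 1` over the orbits is `|A| - 1`: if every index is at most `q`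
and there are at most `N` orbits with `N * (q - 1) + 1 ≤ |A|`, then every index equals `q`. -/
theorem index_eq_of_bounds {c q N : ℕ} (h : EqualFix A Ω c) (hΩ : Nat.card Ω = c + Nat.card A)
    (hq : ∀ ω : Ω, (stabilizer A ω).index ≤ q) (hN : c < N) (hA : N * (q - 1) + 1 ≤ Nat.card A) :
    ∀ ω : Ω, (stabilizer A ω).index = q := by
  classical
  have := Fintype.ofFinite (orbitRel.Quotient A Ω)
  have := Fintype.ofFinite Ω
  have hcard := MulAction.selfEquivSigmaOrbitsQuotientStabilizer A Ω
  have hsum : Nat.card Ω = ∑ o : orbitRel.Quotient A Ω, (stabilizer A o.out).index := by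
    rw [Nat.card_congr hcard, Nat.card_sigma]
    rfl
  intro ω
  by_contra hne
  have hlt : (stabilizer A ω).index < q := lt_of_le_of_ne (hq ω) hne
  let o : orbitRel.Quotient A Ω := Quotient.mk'' ω
  have ho : (stabilizer A o.out).index = (stabilizer A ω).index := by
    obtain ⟨a, ha⟩ := Quotient.exact' (Quotient.out_eq' o)
    have ha' : a • ω = o.out := ha
    congr 1
    ext b
    rw [mem_stabilizer_iff, mem_stabilizer_iff, ← ha', smul_comm, smul_left_cancel_iff]
  have hl : ∑ o : orbitRel.Quotient A Ω, (stabilizer A o.out).index <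
      ∑ _o : orbitRel.Quotient A Ω, q :=
    Finset.sum_lt_sum (fun o _ => hq _) ⟨o, Finset.mem_univ _, ho ▸ hlt⟩
  rw [← hsum, Finset.sum_const, Finset.card_univ, Fintype.card_eq_nat_card,
    card_orbits_top h hΩ, smul_eq_mul, hΩ] at hl
  have hq1 : 1 ≤ q := le_trans (Nat.one_le_iff_ne_zero.mpr (stabilizer A ω).index_ne_zero_of_finite) (hq ω)
  obtain ⟨r, rfl⟩ := Nat.exists_eq_add_of_le hq1
  simp only [Nat.add_sub_cancel_left] at hA
  have hmul : (c + 1) * r ≤ N * r := Nat.mul_le_mul_right r hN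
  nlinarith

end Cfsg.Agent.H64.SLIndex
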