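import Mathlib
import Cfsg.Agent.H64.SLIndex.Count
import Cfsg.Agent.H64.SLIndex.Transv

set_option autoImplicit false

namespace Cfsg.Agent.H64.SLIndex

open Matrix MulAction

open scoped IsMulCommutative

variable {n : ℕ} {F : Type*} [Field F]

local notation "SLn" => Matrix.SpecialLinearGroup (Fin n) F
local notation "Vn" => (Fin n → F)

/-- Covectors killing `v`. -/
def perp (v : Vn) : AddSubgroup Vn where
  carrier := {φ | φ ⬝ᵥ v = 0}
  add_mem' {a b} ha hb := by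
    simp only [Set.mem_setOf_eq] at ha hb ⊢
    rw [add_dotProduct, ha, hb, add_zero]
  zero_mem' := zero_dotProduct v
  neg_mem' {a} ha := by
    simp only [Set.mem_setOf_eq] at ha ⊢
    rw [neg_dotProduct, ha, neg_zero]

/-- The homomorphism `φ ↦ 1 + v φᵀ`. -/
def tvHom (v : Vn) : Multiplicative (perp v) →* SLn where
  toFun φ := tv v φ.toAdd.1 φ.toAdd.2
  map_one' := tv_zero v
  map_mul' φ ψ := (tv_mul_right v φ.toAdd.1 ψ.toAdd.1 φ.toAdd.2 ψ.toAdd.2).symm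

/-- The group of transvections with centre `v`. -/
def tvGroup (v : Vn) : Subgroup SLn := (tvHom v).range

instance tvGroupIsMulCommutative (v : Vn) : IsMulCommutative (tvGroup v) := by
  refine ⟨⟨?_⟩⟩
  rintro ⟨_, a, rfl⟩ ⟨_, b, rfl⟩
  apply Subtype.ext
  change tvHom v a * tvHom v b = tvHom v b * tvHom v a
  rw [← map_mul, ← map_mul, mul_comm]

theorem mem_tvGroup {v : Vn} {x : SLn} :
    x ∈ tvGroup v ↔ ∃ (φ : Vn) (h : φ ⬝ᵥ v = 0), tv v φ h = x :=
  ⟨fun ⟨φ, hφ⟩ => ⟨φ.toAdd.1, φ.toAdd.2, hφ⟩,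
    fun ⟨φ, h, hx⟩ => ⟨Multiplicative.ofAdd ⟨φ, h⟩, hx⟩⟩

/-- The element `1 + v φᵀ` of `tvGroup v`. -/
def tvMk (v φ : Vn) (h : φ ⬝ᵥ v = 0) : tvGroup v := ⟨tv v φ h, mem_tvGroup.mpr ⟨φ, h, rfl⟩⟩

theorem tvMk_congr {v φ φ' : Vn} {h : φ ⬝ᵥ v = 0} {h' : φ' ⬝ᵥ v = 0} (e : φ = φ') :
    tvMk v φ h = tvMk v φ' h' := by
  subst e; rfl

theorem tvMk_mul {v φ ψ : Vn} (h₁ : φ ⬝ᵥ v = 0) (h₂ : ψ ⬝ᵥ v = 0) :
    tvMk v φ h₁ * tvMk v ψ h₂ = tvMk v (φ + ψ) (by rw [add_dotProduct, h₁, h₂, add_zero]) :=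
  Subtype.ext (tv_mul_right v φ ψ h₁ h₂)

theorem tvMk_inv {v φ : Vn} (h : φ ⬝ᵥ v = 0) :
    (tvMk v φ h)⁻¹ = tvMk v (-φ) (by rw [neg_dotProduct, h, neg_zero]) :=
  Subtype.ext (tv_inv v φ h)

theorem tvMk_zero (v : Vn) : tvMk v 0 (zero_dotProduct v) = 1 := Subtype.ext (tv_zero v)

theorem tvMk_eq_iff {v φ ψ : Vn} (hv : v ≠ 0) (h₁ : φ ⬝ᵥ v = 0) (h₂ : ψ ⬝ᵥ v = 0)
    (inj : Function.Injective (tvHom v)) : tvMk v φ h₁ = tvMk v ψ h₂ ↔ φ = ψ := by
  refine ⟨fun e => ?_, tvMk_congr⟩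
  have h : tvHom v (Multiplicative.ofAdd ⟨φ, h₁⟩) = tvHom v (Multiplicative.ofAdd ⟨ψ, h₂⟩) :=
    congrArg Subtype.val e
  exact congrArg (fun x => x.toAdd.1) (inj h)

theorem tvHom_injective {v : Vn} (hv : v ≠ 0) : Function.Injective (tvHom v) := by
  obtain ⟨i, hi⟩ : ∃ i, v i ≠ 0 := by
    by_contra! h
    exact hv (funext h)
  intro a b hab
  apply Multiplicative.toAdd.injective
  apply Subtype.ext
  funext j
  have h := congrFun (congrFun (congrArg Subtype.val hab) i) j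
  have h' : ((1 : Matrix (Fin n) (Fin n) F) + vecMulVec v a.toAdd.1) i j =
      ((1 : Matrix (Fin n) (Fin n) F) + vecMulVec v b.toAdd.1) i j := h
  simp only [Matrix.add_apply, vecMulVec_apply, add_right_inj] at h'
  exact mul_left_cancel₀ hi h'

theorem tvMk_eq_one_iff {v φ : Vn} (hv : v ≠ 0) (h : φ ⬝ᵥ v = 0) : tvMk v φ h = 1 ↔ φ = 0 := by
  constructor
  · intro h1
    have : tvHom v (Multiplicative.ofAdd ⟨φ, h⟩) = tvHom v 1 := by
      rw [map_one]; exact congrArg Subtype.val h1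
    exact congrArg (fun x => x.toAdd.1) (tvHom_injective hv this)
  · rintro rfl
    exact Subtype.ext (tv_zero v)

section Card

variable [Fintype F]

local notation "q" => Fintype.card F

theorem card_perp {v : Vn} (hv : v ≠ 0) : Nat.card (perp v) = q ^ (n - 1) := by
  let f : Vn →+ F :=
    { toFun := fun φ => φ ⬝ᵥ v
      map_zero' := zero_dotProduct v
      map_add' := fun a b => add_dotProduct a b v }
  have hker : f.ker = perp v := rfl
  have hsurj : Function.Surjective f := by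
    obtain ⟨i, hi⟩ : ∃ i, v i ≠ 0 := by
      by_contra! h
      exact hv (funext h)
    intro r
    exact ⟨Pi.single i (r / v i), by simp [f, hi]⟩
  have h := AddSubgroup.card_mul_index f.ker
  rw [AddSubgroup.index_ker, AddMonoidHom.range_eq_top.mpr hsurj, AddSubgroup.card_top, hker,
    Nat.card_eq_fintype_card (α := F), Nat.card_eq_fintype_card (α := Vn), Fintype.card_fun,
    Fintype.card_fin] at h
  have hn : 1 ≤ n := by
    rcases Nat.eq_zero_or_pos n with rfl | h'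
    · exact absurd (Subsingleton.elim v 0) hv
    · exact h'
  refine Nat.eq_of_mul_eq_mul_right (Fintype.card_pos (α := F)) ?_
  rw [h, ← pow_succ, Nat.sub_add_cancel hn]

theorem card_tvGroup {v : Vn} (hv : v ≠ 0) : Nat.card (tvGroup v) = q ^ (n - 1) := by
  rw [← card_perp hv, tvGroup, ← Nat.card_congr (MonoidHom.ofInjective (tvHom_injective hv)).toEquiv]
  rfl

theorem card_perp_two {u v : Vn} (hu : u ≠ 0) (huv : ∀ r : F, v ≠ r • u) :
    Nat.card ↥(perp u ⊓ perp v) * q = q ^ (n - 1) := by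
  let f : perp u →+ F :=
    { toFun := fun φ => φ.1 ⬝ᵥ v
      map_zero' := zero_dotProduct v
      map_add' := fun a b => add_dotProduct a.1 b.1 v }
  have hsurj : Function.Surjective f := by
    intro r
    obtain ⟨χ, h1, h2⟩ := exists_dot' huv
    exact ⟨⟨r • χ, by show (r • χ) ⬝ᵥ u = 0; rw [smul_dotProduct, h1, smul_zero]⟩, by
      show (r • χ) ⬝ᵥ v = r; rw [smul_dotProduct, h2, smul_eq_mul, mul_one]⟩
  have h := AddSubgroup.card_mul_index f.ker
  rw [AddSubgroup.index_ker, AddMonoidHom.range_eq_top.mpr hsurj, AddSubgroup.card_top,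
    Nat.card_eq_fintype_card (α := F), card_perp hu] at h
  rw [← h]
  congr 1
  exact Nat.card_congr ⟨fun x => ⟨⟨x.1, x.2.1⟩, x.2.2⟩, fun x => ⟨x.1.1, x.1.2, x.2⟩, fun _ => rfl,
    fun _ => rfl⟩

/-- `1 + q + ⋯ + q ^ (d - 1)`. -/
theorem geom_facts (d : ℕ) :
    (∑ i ∈ Finset.range d, q ^ i) * (q - 1) + 1 = q ^ d ∧
      (∑ i ∈ Finset.range d, q ^ i) < q ^ d := by
  have hq : 1 ≤ q - 1 := Nat.le_sub_one_of_lt Fintype.one_lt_card
  induction d with
  | zero => simp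
  | succ d ih =>
    rw [Finset.sum_range_succ, pow_succ]
    obtain ⟨h1, h2⟩ := ih
    obtain ⟨r, hr⟩ := Nat.exists_eq_add_of_le (Fintype.card_pos (α := F))
    constructor
    · rw [hr] at h1 ⊢
      simp only [zero_add, Nat.succ_eq_add_one, add_tsub_cancel_left] at h1 ⊢
      nlinarith
    · nlinarith [Nat.pow_pos (n := d) (Fintype.card_pos (α := F)), Fintype.one_lt_card (α := F)]

variable (H : Subgroup (Matrix.SpecialLinearGroup (Fin n) F))

/-- The fixed point count of all non-trivial transvections, and the degree. -/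
theorem equalFix_facts (hn : 3 ≤ n) (hH : H ≠ ⊤) (hidx : H.index < ∑ i ∈ Finset.range n, q ^ i) :
    ∃ c, c < ∑ i ∈ Finset.range (n - 1), q ^ i ∧ H.index = c + q ^ (n - 1) ∧
      (∀ (v φ : Vn) (h : φ ⬝ᵥ v = 0), v ≠ 0 → φ ≠ 0 →
        Nat.card (fixedBy (SLn ⧸ H) (tv v φ h)) = c) ∧
      ∀ v : Vn, v ≠ 0 → EqualFix (tvGroup v) (SLn ⧸ H) c ∧
        Nat.card (SLn ⧸ H) = c + Nat.card (tvGroup v) := by
  classical
  have i0 : Fin n := ⟨0, by omega⟩
  have i1 : Fin n := ⟨1, by omega⟩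
  obtain ⟨v₀, hv₀⟩ : ∃ v₀ : Vn, v₀ ≠ 0 := ⟨fun _ => 1, fun h => one_ne_zero (congrFun h i0)⟩
  obtain ⟨φ₀, hφ₀, h₀, -⟩ := exists_perp_two hn v₀ v₀
  set c := Nat.card (fixedBy (SLn ⧸ H) (tv v₀ φ₀ h₀)) with hc
  have hconst : ∀ (v φ : Vn) (h : φ ⬝ᵥ v = 0), v ≠ 0 → φ ≠ 0 →
      Nat.card (fixedBy (SLn ⧸ H) (tv v φ h)) = c := by
    intro v φ h hv hφ
    obtain ⟨g, hg⟩ := exists_conj_tv hn hv₀ hφ₀ hv hφ h₀ h
    rw [hc, ← hg]
    refine Nat.card_congr ⟨fun x => ⟨g⁻¹ • x.1, ?_⟩, fun x => ⟨g • x.1, ?_⟩, fun x => ?_, fun x => ?_⟩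
    · have hx : (g * tv v₀ φ₀ h₀ * g⁻¹) • x.1 = x.1 := x.2
      rw [mem_fixedBy]
      conv_rhs => rw [← hx]
      rw [mul_smul, mul_smul, inv_smul_smul]
    · have hx : tv v₀ φ₀ h₀ • x.1 = x.1 := x.2
      rw [mem_fixedBy, mul_smul, mul_smul, inv_smul_smul, hx]
    · exact Subtype.ext (smul_inv_smul g x.1)
    · exact Subtype.ext (inv_smul_smul g x.1)
  have hclt : c < Nat.card (SLn ⧸ H) := by
    refine lt_of_le_of_ne (Nat.card_le_card_of_injective Subtype.val Subtype.val_injective) ?_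
    intro heq
    apply hH
    refine eq_top_of_tv_mem H fun v φ h => ?_
    by_cases hv : v = 0
    · subst hv; rw [tv_zero_left]; exact one_mem _
    by_cases hφ : φ = 0
    · subst hφ; rw [tv_zero]; exact one_mem _
    have hall : ∀ x, x ∈ fixedBy (SLn ⧸ H) (tv v φ h) := by
      intro x
      by_contra hx
      have : Nat.card (fixedBy (SLn ⧸ H) (tv v φ h)) < Nat.card (SLn ⧸ H) :=
        Finite.card_subtype_lt hx
      rw [hconst v φ h hv hφ, heq] at this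
      exact lt_irrefl _ this
    have h1 := hall ((1 : SLn) : SLn ⧸ H)
    rw [mem_fixedBy, MulAction.Quotient.smul_coe, smul_eq_mul, mul_one, QuotientGroup.eq, mul_one] at h1
    simpa using h1
  have hsum : ∑ i ∈ Finset.range n, q ^ i = (∑ i ∈ Finset.range (n - 1), q ^ i) + q ^ (n - 1) := by
    rw [← Finset.sum_range_succ, Nat.sub_add_cancel (by omega : 1 ≤ n)]
  have hgeo := geom_facts (F := F) (n - 1)
  have heq : ∀ v : Vn, v ≠ 0 → EqualFix (tvGroup v) (SLn ⧸ H) c := by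
    intro v hv x hx
    obtain ⟨φ, h, hφx⟩ := mem_tvGroup.mp x.2
    have hφ0 : φ ≠ 0 := by
      rintro rfl
      exact hx (Subtype.ext (by rw [← hφx]; exact tv_zero v))
    rw [show fixedBy (SLn ⧸ H) x = fixedBy (SLn ⧸ H) (x : SLn) from rfl, ← hφx]
    exact hconst v φ h hv hφ0
  have hcard : ∀ v : Vn, v ≠ 0 → Nat.card (SLn ⧸ H) = c + Nat.card (tvGroup v) := by
    intro v hv
    refine card_eq_add (heq v hv) hclt ?_
    rw [card_tvGroup hv]
    have : Nat.card (SLn ⧸ H) = H.index := rfl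
    omega
  have hi := hcard v₀ hv₀
  rw [card_tvGroup hv₀] at hi
  have hi' : Nat.card (SLn ⧸ H) = H.index := rfl
  refine ⟨c, ?_, by omega, hconst, fun v hv => ⟨heq v hv, hcard v hv⟩⟩
  omega

/-- The subgroup of transvections `1 + v (r χ)ᵀ`, `r ∈ F`. -/
def lineGroup (v χ : Vn) (h : χ ⬝ᵥ v = 0) : Subgroup (tvGroup v) where
  carrier := {x | ∃ r : F, x = tvMk v (r • χ) (by rw [smul_dotProduct, h, smul_zero])}
  one_mem' := ⟨0, (tvMk_zero v).symm.trans (tvMk_congr (zero_smul F χ).symm)⟩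
  mul_mem' := by
    rintro _ _ ⟨r, rfl⟩ ⟨s, rfl⟩
    exact ⟨r + s, (tvMk_mul _ _).trans (tvMk_congr (add_smul r s χ).symm)⟩
  inv_mem' := by
    rintro _ ⟨r, rfl⟩
    exact ⟨-r, (tvMk_inv _).trans (tvMk_congr (neg_smul r χ).symm)⟩

theorem card_lineGroup {v χ : Vn} (hv : v ≠ 0) (hχ : χ ≠ 0) (h : χ ⬝ᵥ v = 0) :
    Nat.card (lineGroup v χ h) = q := by
  let f : F → lineGroup v χ h := fun r =>
    ⟨tvMk v (r • χ) (by rw [smul_dotProduct, h, smul_zero]), r, rfl⟩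
  have hf : Function.Bijective f := by
    constructor
    · intro r s hrs
      have h2 : r • χ = s • χ :=
        (tvMk_eq_iff hv _ _ (tvHom_injective hv)).mp (congrArg Subtype.val hrs)
      exact smul_left_injective F hχ h2
    · rintro ⟨_, r, rfl⟩
      exact ⟨r, rfl⟩
  rw [← Nat.card_congr (Equiv.ofBijective f hf), Nat.card_eq_fintype_card]

/-- A stabiliser either spans with a line, contains it, or lies in it. -/
theorem line_trichotomy {c : ℕ} {v χ : Vn} (hv : v ≠ 0) (hχ : χ ⬝ᵥ v = 0)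
    (hfix : EqualFix (tvGroup v) (SLn ⧸ H) c)
    (hcard : Nat.card (SLn ⧸ H) = c + Nat.card (tvGroup v)) (ω : SLn ⧸ H) :
    stabilizer (tvGroup v) ω ⊔ lineGroup v χ hχ = ⊤ ∨
      lineGroup v χ hχ ≤ stabilizer (tvGroup v) ω ∨
      stabilizer (tvGroup v) ω ≤ lineGroup v χ hχ := by
  set M := stabilizer (tvGroup v) ω
  rw [or_iff_not_imp_left]
  intro htop
  rw [or_iff_not_imp_right]
  intro hM
  obtain ⟨x, hxM, hxL⟩ := SetLike.not_le_iff_exists.mp hM
  rintro _ ⟨r, rfl⟩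
  by_contra hr
  obtain ⟨φ, hφ, hφx⟩ := mem_tvGroup.mp x.2
  have hxeq : x = tvMk v φ hφ := Subtype.ext hφx.symm
  subst hxeq
  have hind : ∀ s : F, φ ≠ s • χ := fun s hs => hxL ⟨s, tvMk_congr hs⟩
  obtain ⟨u, hu1, hu2⟩ := exists_dot hind
  set g : SLn := tv (r • u) χ (by rw [dotProduct_smul, hu1, smul_zero]) with hg
  have hgv : (g : Matrix (Fin n) (Fin n) F) *ᵥ v = v := by
    rw [hg, tv_mulVec, hχ, zero_smul, add_zero]
  have hginv : ∀ ψ : Vn, ψ ᵥ* ((g⁻¹ : SLn) : Matrix (Fin n) (Fin n) F) = ψ - (r * (ψ ⬝ᵥ u)) • χ := by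
    intro ψ
    rw [hg, tv_inv, tv_vecMul, dotProduct_smul, smul_eq_mul, smul_neg, ← sub_eq_add_neg]
  have hperp : ∀ ψ : Vn, ψ ⬝ᵥ v = 0 → (ψ - (r * (ψ ⬝ᵥ u)) • χ) ⬝ᵥ v = 0 := fun ψ hψ => by
    rw [sub_dotProduct, hψ, smul_dotProduct, hχ, smul_zero, sub_zero]
  have hconj : ∀ (ψ : Vn) (hψ : ψ ⬝ᵥ v = 0),
      g * tv v ψ hψ * g⁻¹ = tv v (ψ - (r * (ψ ⬝ᵥ u)) • χ) (hperp ψ hψ) := fun ψ hψ => by
    rw [conj_tv]; exact tv_congr _ _ hgv (hginv ψ)
  set M' := stabilizer (tvGroup v) (g • ω)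
  have hx' : tvMk v (φ - (r * (φ ⬝ᵥ u)) • χ) (hperp φ hφ) ∈ M' := by
    rw [mem_stabilizer_iff]
    change tv v _ (hperp φ hφ) • g • ω = g • ω
    have : tv v φ hφ • ω = ω := hxM
    rw [← hconj φ hφ, mul_smul, inv_smul_smul, mul_smul, this]
  have hle : M' ≤ M ⊔ lineGroup v χ hχ := by
    intro y hy
    obtain ⟨ψ, hψ, hψy⟩ := mem_tvGroup.mp y.2
    have hyeq : y = tvMk v ψ hψ := Subtype.ext hψy.symm
    subst hyeq
    have hy' : tv v ψ hψ • g • ω = g • ω := hy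
    set ψ' := ψ + (r * (ψ ⬝ᵥ u)) • χ with hψ'
    have hψ'v : ψ' ⬝ᵥ v = 0 := by rw [hψ', add_dotProduct, hψ, smul_dotProduct, hχ, smul_zero, add_zero]
    have hback : ψ' - (r * (ψ' ⬝ᵥ u)) • χ = ψ := by
      rw [hψ', add_dotProduct, smul_dotProduct, hu1, smul_zero, add_zero, add_sub_cancel_right]
    have hmem : tvMk v ψ' hψ'v ∈ M := by
      rw [mem_stabilizer_iff]
      change tv v ψ' hψ'v • ω = ω
      have h2 : g * tv v ψ' hψ'v * g⁻¹ = tv v ψ hψ := (hconj ψ' hψ'v).trans (tv_congr _ _ rfl hback)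
      rw [← h2, mul_smul, inv_smul_smul, mul_smul, smul_left_cancel_iff] at hy'
      exact hy'
    have hdec : tvMk v ψ hψ = tvMk v ψ' hψ'v *
        tvMk v ((-(r * (ψ ⬝ᵥ u))) • χ) (by rw [smul_dotProduct, hχ, smul_zero]) := by
      rw [tvMk_mul]
      exact tvMk_congr (by rw [hψ', neg_smul, add_neg_cancel_right])
    rw [hdec]
    exact Subgroup.mul_mem_sup hmem ⟨_, rfl⟩
  by_cases horb : g • ω ∈ orbit (tvGroup v) ω
  · obtain ⟨a, ha⟩ := horb
    have hMM : M' = M := by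
      ext b
      change b • g • ω = g • ω ↔ b • ω = ω
      rw [← ha]
      change b • a • ω = a • ω ↔ _
      rw [smul_comm, smul_left_cancel_iff]
    rw [hMM] at hx'
    apply hr
    have := M.mul_mem (M.inv_mem hx') hxM
    rw [tvMk_inv, tvMk_mul] at this
    convert this using 1
    exact tvMk_congr (by rw [hu2, mul_one]; abel)
  · apply htop
    rw [eq_top_iff, ← sup_stabilizer_eq_top hfix hcard horb]
    exact sup_le le_sup_left hle

omit [Fintype F] in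
theorem lineGroup_inf {v χ χ' : Vn} (hv : v ≠ 0) (hχ : χ ⬝ᵥ v = 0) (hχ' : χ' ⬝ᵥ v = 0)
    (hind : ∀ r : F, χ' ≠ r • χ) : lineGroup v χ hχ ⊓ lineGroup v χ' hχ' = ⊥ := by
  rw [eq_bot_iff]
  rintro x ⟨⟨r, rfl⟩, ⟨s, hs⟩⟩
  have h2 : r • χ = s • χ' := (tvMk_eq_iff hv _ _ (tvHom_injective hv)).mp hs
  rw [Subgroup.mem_bot, tvMk_eq_one_iff hv, h2]
  by_contra hne
  have hs0 : s ≠ 0 := fun h => hne (by rw [h, zero_smul])
  exact hind (s⁻¹ * r) (by rw [← smul_smul, h2, smul_smul, inv_mul_cancel₀ hs0, one_smul])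

/-- Non-trivial stabilisers have index at most `q`. -/
theorem index_le_of_ne_bot (hn : 3 ≤ n) {c : ℕ} {v : Vn} (hv : v ≠ 0)
    (hfix : EqualFix (tvGroup v) (SLn ⧸ H) c)
    (hcard : Nat.card (SLn ⧸ H) = c + Nat.card (tvGroup v)) (ω : SLn ⧸ H)
    (hne : stabilizer (tvGroup v) ω ≠ ⊥) : (stabilizer (tvGroup v) ω).index ≤ q := by
  set M := stabilizer (tvGroup v) ω
  have key : ∀ (χ : Vn) (h : χ ⬝ᵥ v = 0), χ ≠ 0 → M ⊔ lineGroup v χ h = ⊤ → M.index ≤ q := by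
    intro χ h hχ0 htop
    have h1 : M.relIndex (lineGroup v χ h ⊔ M) = M.relIndex (lineGroup v χ h) :=
      Subgroup.relIndex_sup_right (lineGroup v χ h) M
    rw [sup_comm, htop, Subgroup.relIndex_top_right] at h1
    rw [h1, ← card_lineGroup hv hχ0 h]
    exact Nat.le_of_dvd Nat.card_pos (Subgroup.relIndex_dvd_card M _)
  by_cases htop : M = ⊤
  · rw [htop, Subgroup.index_top]; exact Fintype.card_pos
  obtain ⟨x, hx⟩ : ∃ x, x ∉ M := by
    by_contra! h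
    exact htop (eq_top_iff.mpr fun y _ => h y)
  obtain ⟨χ, hχ, hχx⟩ := mem_tvGroup.mp x.2
  have hxe : x = tvMk v χ hχ := Subtype.ext hχx.symm
  subst hxe
  have hχ0 : χ ≠ 0 := fun h => hx (by rw [(tvMk_eq_one_iff hv hχ).mpr h]; exact one_mem _)
  rcases line_trichotomy H hv hχ hfix hcard ω with h | h | h
  · exact key χ hχ hχ0 h
  · exact absurd (h ⟨1, tvMk_congr (one_smul F χ).symm⟩) hx
  · obtain ⟨y, hy⟩ : ∃ y, y ∉ lineGroup v χ hχ := by
      by_contra! h'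
      have hle : Nat.card (tvGroup v) ≤ q := by
        rw [← card_lineGroup hv hχ0 hχ]
        exact Nat.card_le_card_of_injective (fun z => (⟨z, h' z⟩ : lineGroup v χ hχ))
          (fun a b hab => congrArg Subtype.val hab)
      rw [card_tvGroup hv] at hle
      have : q ^ 1 < q ^ (n - 1) := Nat.pow_lt_pow_right Fintype.one_lt_card (by omega)
      rw [pow_one] at this
      omega
    obtain ⟨χ', hχ', hχ'y⟩ := mem_tvGroup.mp y.2
    have hye : y = tvMk v χ' hχ' := Subtype.ext hχ'y.symm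
    subst hye
    have hind : ∀ r : F, χ' ≠ r • χ := fun r hr => hy ⟨r, tvMk_congr hr⟩
    have hχ'0 : χ' ≠ 0 := fun h' => hy (by rw [(tvMk_eq_one_iff hv hχ').mpr h']; exact one_mem _)
    have hinf := lineGroup_inf hv hχ hχ' hind
    rcases line_trichotomy H hv hχ' hfix hcard ω with h2 | h2 | h2
    · exact key χ' hχ' hχ'0 h2
    · exfalso
      have hm : tvMk v χ' hχ' ∈ lineGroup v χ hχ :=
        h (h2 ⟨1, tvMk_congr (one_smul F χ').symm⟩)
      exact hy hm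
    · exfalso
      exact hne (eq_bot_iff.mpr (hinf ▸ le_inf h h2))

end Card

end Cfsg.Agent.H64.SLIndex
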