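import Mathlib
import Cfsg.Agent.H64.SLIndex.Types

set_option autoImplicit false

namespace Cfsg.Agent.H64.SLIndex

open Matrix MulAction

open scoped IsMulCommutative

variable {n : ℕ} {F : Type*} [Field F] [Fintype F]

local notation "SLn" => Matrix.SpecialLinearGroup (Fin n) F
local notation "Vn" => (Fin n → F)
local notation "q" => Fintype.card F

variable (H : Subgroup (Matrix.SpecialLinearGroup (Fin n) F))

/-- For a subgroup of small index, the transvections with a given centre are all in or all out. -/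
theorem stabilizer_bot_or_top (hn : 3 ≤ n) (hH : H ≠ ⊤)
    (hidx : H.index < ∑ i ∈ Finset.range n, q ^ i) {v : Vn} (hv : v ≠ 0) (ω : SLn ⧸ H) :
    stabilizer (tvGroup v) ω = ⊥ ∨ stabilizer (tvGroup v) ω = ⊤ := by
  classical
  obtain ⟨c, hc, hm, -, hfix⟩ := equalFix_facts H hn hH hidx
  have hgeo := geom_facts (F := F) (n - 1)
  by_contra! hmixed
  obtain ⟨hbot, htop⟩ := hmixed
  -- every centre has a mixed stabiliser, hence all of index `q`
  have hindex : ∀ (u : Vn), u ≠ 0 → ∀ ω' : SLn ⧸ H, (stabilizer (tvGroup u) ω').index = q := by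
    intro u hu
    have : Nontrivial (Fin n) := Fin.nontrivial_iff_two_le.mpr (by omega)
    obtain ⟨g, hg⟩ := Cfsg.Agent.H1.exists_SL_smul_eq (F := F) hv hu
    have hgv : (g : Matrix (Fin n) (Fin n) F) *ᵥ v = u := hg
    have hconjmem : ∀ (φ : Vn) (h : φ ⬝ᵥ v = 0), g * tv v φ h * g⁻¹ ∈ tvGroup u := by
      intro φ h
      rw [mem_tvGroup]
      have hd := dotProduct_conj g h
      rw [hgv] at hd
      exact ⟨_, hd, ((conj_tv g v φ h).trans (tv_congr _ hd hgv rfl)).symm⟩
    let e : tvGroup v → tvGroup u := fun x => ⟨g * x.1 * g⁻¹, by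
      obtain ⟨φ, h, hx⟩ := mem_tvGroup.mp x.2
      rw [← hx]; exact hconjmem φ h⟩
    have hinj : Function.Injective e := fun a b hab => Subtype.ext (by
      simpa [e] using congrArg Subtype.val hab)
    have he : ∀ x : tvGroup v, x ∈ stabilizer (tvGroup v) ω ↔ e x ∈ stabilizer (tvGroup u) (g • ω) := by
      intro x
      rw [mem_stabilizer_iff, mem_stabilizer_iff]
      change (x : SLn) • ω = ω ↔ (g * x.1 * g⁻¹) • g • ω = g • ω
      rw [mul_smul, inv_smul_smul, mul_smul, smul_left_cancel_iff]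
    obtain ⟨x₁, hx₁, hx₁'⟩ := (Subgroup.bot_or_exists_ne_one _).resolve_left hbot
    obtain ⟨x₂, hx₂⟩ : ∃ x, x ∉ stabilizer (tvGroup v) ω := by
      by_contra! h'
      exact htop (eq_top_iff.mpr fun y _ => h' y)
    have hbot' : stabilizer (tvGroup u) (g • ω) ≠ ⊥ := by
      intro h'
      have h1 := (he x₁).mp hx₁
      rw [h', Subgroup.mem_bot] at h1
      have h2 : e 1 = 1 := Subtype.ext (by simp [e])
      exact hx₁' (hinj (h1.trans h2.symm))
    have htop' : stabilizer (tvGroup u) (g • ω) ≠ ⊤ := by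
      intro h'
      exact hx₂ ((he x₂).mpr (h' ▸ Subgroup.mem_top _))
    obtain ⟨hf, hcd⟩ := hfix u hu
    have hne : ∀ ω' : SLn ⧸ H, stabilizer (tvGroup u) ω' ≠ ⊥ := by
      intro ω' h'
      by_cases ho : ω' ∈ orbit (tvGroup u) (g • ω)
      · obtain ⟨a, ha⟩ := ho
        apply hbot'
        rw [← h']
        ext b
        rw [mem_stabilizer_iff, mem_stabilizer_iff, ← ha]
        change b • g • ω = g • ω ↔ b • a • g • ω = a • g • ω
        rw [smul_comm b a, smul_left_cancel_iff]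
      · have := sup_stabilizer_eq_top hf hcd ho
        rw [h', sup_bot_eq] at this
        exact htop' this
    refine index_eq_of_bounds hf hcd (fun ω' => index_le_of_ne_bot H hn hu hf hcd ω' (hne ω')) hc ?_
    rw [card_tvGroup hu]
    omega
  -- a single point
  set ω₀ : SLn ⧸ H := ((1 : SLn) : SLn ⧸ H)
  have hfixed : ∀ (u φ : Vn) (h : φ ⬝ᵥ u = 0),
      (tvMk u φ h ∈ stabilizer (tvGroup u) ω₀) ↔ tv u φ h • ω₀ = ω₀ := fun u φ h => Iff.rfl
  have hcardM : ∀ u : Vn, u ≠ 0 → Nat.card (stabilizer (tvGroup u) ω₀) * q = q ^ (n - 1) := by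
    intro u hu
    have h1 := Subgroup.card_mul_index (stabilizer (tvGroup u) ω₀)
    rwa [hindex u hu ω₀, card_tvGroup hu] at h1
  have hclosed : ∀ u : Vn, u ≠ 0 → ∀ (φ : Vn) (h : φ ⬝ᵥ u = 0),
      tvMk u φ h ∈ stabilizer (tvGroup u) ω₀ →
        ∀ r : F, tvMk u (r • φ) (by rw [smul_dotProduct, h, smul_zero]) ∈ stabilizer (tvGroup u) ω₀ := by
    intro u hu φ h hmem r
    by_cases hφ : φ = 0
    · subst hφ
      rw [show tvMk u (r • (0 : Vn)) _ = tvMk u 0 (zero_dotProduct u) from tvMk_congr (smul_zero r),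
        tvMk_zero]
      exact one_mem _
    obtain ⟨hf, hcd⟩ := hfix u hu
    set M := stabilizer (tvGroup u) ω₀
    suffices hle : lineGroup u φ h ≤ M from hle ⟨r, rfl⟩
    rcases line_trichotomy H hu h hf hcd ω₀ with h' | h' | h'
    · exfalso
      have h1 : M.relIndex (lineGroup u φ h ⊔ M) = M.relIndex (lineGroup u φ h) :=
        Subgroup.relIndex_sup_right (lineGroup u φ h) M
      rw [sup_comm, h', Subgroup.relIndex_top_right, hindex u hu ω₀] at h1
      have h2 := Subgroup.relIndex_mul_relIndex ⊥ (M ⊓ lineGroup u φ h) (lineGroup u φ h) bot_le inf_le_right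
      rw [Subgroup.relIndex_bot_left, Subgroup.relIndex_bot_left, Subgroup.inf_relIndex_right,
        ← h1, card_lineGroup hu hφ h] at h2
      have h3 : Nat.card ↥(M ⊓ lineGroup u φ h) = 1 := by
        have := Fintype.card_pos (α := F)
        exact Nat.eq_of_mul_eq_mul_right this (by rw [h2, one_mul])
      have h4 : tvMk u φ h = 1 := by
        have h5 : tvMk u φ h ∈ M ⊓ lineGroup u φ h := ⟨hmem, 1, tvMk_congr (one_smul F φ).symm⟩
        have : Subsingleton ↥(M ⊓ lineGroup u φ h) := (Nat.card_eq_one_iff_unique.mp h3).1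
        exact congrArg Subtype.val (Subsingleton.elim (⟨_, h5⟩ : ↥(M ⊓ lineGroup u φ h)) 1)
      exact hφ ((tvMk_eq_one_iff hu h).mp h4)
    · exact h'
    · refine (SetLike.coe_injective (Set.eq_of_subset_of_ncard_le h' ?_ (Set.toFinite _))).ge
      rw [Set.ncard_eq_toFinset_card', Set.ncard_eq_toFinset_card', Set.toFinset_card, Set.toFinset_card,
        ← Nat.card_eq_fintype_card, ← Nat.card_eq_fintype_card]
      have h6 := hcardM u hu
      have h7 : q ^ 1 * q ≤ q ^ (n - 1) := by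
        rw [← pow_succ]; exact Nat.pow_le_pow_right Fintype.card_pos (by omega)
      rw [pow_one, ← h6] at h7
      have := Nat.le_of_mul_le_mul_right h7 Fintype.card_pos
      rwa [← card_lineGroup hu hφ h] at this
  -- the set of covectors all of whose transvections fix `ω₀`
  let Fix : Vn → Vn → Prop := fun u φ => ∀ h : φ ⬝ᵥ u = 0, tv u φ h • ω₀ = ω₀
  have hFix_smul : ∀ u φ (r : F), φ ⬝ᵥ u = 0 → Fix u φ → Fix u (r • φ) := by
    intro u φ r h hF h'
    by_cases hu : u = 0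
    · subst hu; rw [tv_zero_left, one_smul]
    exact hclosed u hu φ h (hF h) r
  have claim : ∀ (u w φ : Vn), u ≠ 0 → φ ⬝ᵥ u = 0 → φ ⬝ᵥ w = 0 → Fix u φ → Fix w φ := by
    intro u w φ hu hφu hφw hF hw'
    by_cases hw0 : w = 0
    · subst hw0; rw [tv_zero_left, one_smul]
    by_cases hdep : ∃ r : F, u = r • w
    · obtain ⟨r, hr⟩ := hdep
      have hr0 : r ≠ 0 := fun h => hu (by rw [hr, h, zero_smul])
      have h1 := hFix_smul u φ r⁻¹ hφu hF (by rw [smul_dotProduct, hφu, smul_zero])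
      have h2 : tv u (r⁻¹ • φ) (by rw [smul_dotProduct, hφu, smul_zero]) = tv w φ hw' := by
        rw [← tv_smul u φ r⁻¹ hφu]
        exact tv_congr _ _ (by rw [hr, smul_smul, inv_mul_cancel₀ hr0, one_smul]) rfl
      rwa [h2] at h1
    push Not at hdep
    by_cases hex : ∃ χ : Vn, χ ⬝ᵥ w = 0 ∧ χ ⬝ᵥ u ≠ 0 ∧ Fix w χ
    · obtain ⟨χ, hχw, hχu, hχF⟩ := hex
      have h1 : tv w χ hχw • ω₀ = ω₀ := hχF hχw
      have h2 : tv u φ hφu • ω₀ = ω₀ := hF hφu
      have h3 : (tv u φ hφu * tv w χ hχw * (tv u φ hφu)⁻¹) • ω₀ = ω₀ := by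
        rw [mul_smul, mul_smul, inv_smul_eq_iff.mpr h2.symm, h1, h2]
      have hp : (χ - (χ ⬝ᵥ u) • φ) ⬝ᵥ w = 0 := by
        rw [sub_dotProduct, hχw, smul_dotProduct, hφw, smul_zero, sub_zero]
      have h4 : tv u φ hφu * tv w χ hχw * (tv u φ hφu)⁻¹ = tv w (χ - (χ ⬝ᵥ u) • φ) hp := by
        rw [conj_tv]
        refine tv_congr _ _ ?_ ?_
        · rw [tv_mulVec, hφw, zero_smul, add_zero]
        · rw [tv_inv, tv_vecMul, smul_neg, ← sub_eq_add_neg]
      rw [h4] at h3
      have h5 : ((χ ⬝ᵥ u) • φ) ⬝ᵥ w = 0 := by rw [smul_dotProduct, hφw, smul_zero]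
      have h6 : tvMk w ((χ ⬝ᵥ u) • φ) h5 ∈ stabilizer (tvGroup w) ω₀ := by
        have := mul_mem (inv_mem (show tvMk w _ hp ∈ stabilizer (tvGroup w) ω₀ from h3))
          (show tvMk w χ hχw ∈ stabilizer (tvGroup w) ω₀ from h1)
        rw [tvMk_inv, tvMk_mul] at this
        convert this using 1
        exact tvMk_congr (by abel)
      have h7 := hFix_smul w _ (χ ⬝ᵥ u)⁻¹ h5 (fun _ => h6) (by rw [smul_dotProduct, h5, smul_zero])
      have h8 : tv w ((χ ⬝ᵥ u)⁻¹ • (χ ⬝ᵥ u) • φ) (by rw [smul_dotProduct, h5, smul_zero]) = tv w φ hw' :=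
        tv_congr _ _ rfl (by rw [smul_smul, inv_mul_cancel₀ hχu, one_smul])
      rwa [h8] at h7
    · push Not at hex
      let ι : stabilizer (tvGroup w) ω₀ → ↥(perp w ⊓ perp u) := fun x =>
        ⟨(mem_tvGroup.mp x.1.2).choose, by
          obtain ⟨h, hx⟩ := (mem_tvGroup.mp x.1.2).choose_spec
          refine ⟨h, ?_⟩
          by_contra hne
          apply hex _ h hne
          intro h'
          have hx2 : (x.1 : SLn) • ω₀ = ω₀ := x.2
          rw [← hx] at hx2
          exact hx2⟩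
      have hι : Function.Injective ι := by
        intro a b hab
        obtain ⟨ha, hxa⟩ := (mem_tvGroup.mp a.1.2).choose_spec
        obtain ⟨hb, hxb⟩ := (mem_tvGroup.mp b.1.2).choose_spec
        refine Subtype.ext (Subtype.ext ?_)
        rw [← hxa, ← hxb]
        exact tv_congr _ _ rfl (congrArg Subtype.val hab)
      have hcard : Nat.card (stabilizer (tvGroup w) ω₀) = Nat.card ↥(perp w ⊓ perp u) :=
        Nat.eq_of_mul_eq_mul_right (Fintype.card_pos (α := F))
          (by rw [hcardM w hw0, card_perp_two hw0 hdep])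
      obtain ⟨x, hx⟩ := ((Nat.bijective_iff_injective_and_card ι).mpr ⟨hι, hcard⟩).2 ⟨φ, hφw, hφu⟩
      obtain ⟨h, hxs⟩ := (mem_tvGroup.mp x.1.2).choose_spec
      have h9 : (x.1 : SLn) • ω₀ = ω₀ := x.2
      rw [← hxs] at h9
      rwa [tv_congr h hw' rfl (congrArg Subtype.val hx)] at h9
  let T : Submodule F Vn :=
    { carrier := {φ | ∀ u, Fix u φ}
      zero_mem' := fun u _ => by rw [tv_zero, one_smul]
      add_mem' := by
        intro a b ha hb u hu'
        obtain ⟨χ, hχ0, hχa, hχb⟩ := exists_perp_two hn a b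
        have hab : (a + b) ⬝ᵥ χ = 0 := by
          rw [add_dotProduct, dotProduct_comm a, dotProduct_comm b, hχa, hχb, add_zero]
        refine claim χ u (a + b) hχ0 hab hu' ?_ hu'
        intro h
        have h1 := ha χ (by rwa [dotProduct_comm])
        have h2 := hb χ (by rwa [dotProduct_comm])
        rw [← tv_mul_right χ a b (by rwa [dotProduct_comm]) (by rwa [dotProduct_comm]), mul_smul, h2, h1]
      smul_mem' := by
        intro r a ha u hu'
        by_cases hr : r = 0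
        · subst hr
          rw [tv_congr hu' (zero_dotProduct u) rfl (zero_smul F a), tv_zero, one_smul]
        · have hau : a ⬝ᵥ u = 0 := by
            rw [smul_dotProduct, smul_eq_mul] at hu'
            exact (mul_eq_zero.mp hu').resolve_left hr
          exact hFix_smul u a r hau (ha u) hu' }
  have hTmem : ∀ (u : Vn), u ≠ 0 → ∀ φ, ∀ h : φ ⬝ᵥ u = 0, (φ ∈ T ↔ tv u φ h • ω₀ = ω₀) := fun u hu φ h =>
    ⟨fun hT => hT u h, fun hF w hw => claim u w φ hu h hw (fun _ => hF) hw⟩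
  have hTcard : ∀ (u : Vn), u ≠ 0 → Nat.card ↥(T.toAddSubgroup ⊓ perp u) * q = q ^ (n - 1) := by
    intro u hu
    rw [← hcardM u hu]
    congr 1
    refine Nat.card_congr (Equiv.ofBijective
      (fun x => (⟨tvMk u x.1 x.2.2, (hTmem u hu x.1 x.2.2).mp x.2.1⟩ : stabilizer (tvGroup u) ω₀)) ⟨?_, ?_⟩)
    · intro a b hab
      exact Subtype.ext ((tvMk_eq_iff hu a.2.2 b.2.2 (tvHom_injective hu)).mp (congrArg Subtype.val hab))
    · intro x
      obtain ⟨φ, h, hx⟩ := mem_tvGroup.mp x.1.2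
      have h1 : (x.1 : SLn) • ω₀ = ω₀ := x.2
      rw [← hx] at h1
      exact ⟨⟨φ, (hTmem u hu φ h).mpr h1, h⟩, Subtype.ext (Subtype.ext hx)⟩
  have hTne : T ≠ ⊤ := by
    intro hT
    have h1 := hTcard v hv
    rw [hT, Submodule.top_toAddSubgroup, top_inf_eq, card_perp hv] at h1
    have h2 : 1 < q := Fintype.one_lt_card
    nlinarith [Nat.pow_pos (n := n - 1) (Fintype.card_pos (α := F))]
  obtain ⟨f, hf0, hf⟩ := Submodule.exists_le_ker_of_lt_top T (lt_top_iff_ne_top.mpr hTne)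
  set w : Vn := fun i => f (Pi.single i 1) with hwdef
  have hfw : ∀ φ, f φ = φ ⬝ᵥ w := by
    intro φ
    conv_lhs => rw [← Finset.univ_sum_single φ, map_sum]
    refine Finset.sum_congr rfl fun i _ => ?_
    rw [hwdef, ← smul_eq_mul, ← map_smul, ← Pi.single_smul', smul_eq_mul, mul_one]
  have hw0 : w ≠ 0 := fun h => hf0 (LinearMap.ext fun φ => by simp [hfw, h])
  have hTle : T.toAddSubgroup ≤ perp w := fun φ hφ => by
    show φ ⬝ᵥ w = 0
    rw [← hfw]; exact hf hφ
  have hT1 := hTcard w hw0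
  rw [inf_of_le_left hTle] at hT1
  obtain ⟨φ₀, hφ₀T, hφ₀⟩ : ∃ φ ∈ T, φ ≠ 0 := by
    refine Submodule.exists_mem_ne_zero_of_ne_bot fun hb => ?_
    rw [hb] at hT1
    have h1 : Nat.card ↥((⊥ : Submodule F Vn).toAddSubgroup) = 1 := by simp
    rw [h1, one_mul] at hT1
    have : q ^ 1 < q ^ (n - 1) := Nat.pow_lt_pow_right Fintype.one_lt_card (by omega)
    rw [pow_one, ← hT1] at this
    exact lt_irrefl _ this
  obtain ⟨i, hi⟩ : ∃ i, φ₀ i ≠ 0 := by
    by_contra! h
    exact hφ₀ (funext h)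
  set w' : Vn := Pi.single i 1
  have hw'0 : w' ≠ 0 := by simp [w']
  have hlt : Nat.card ↥(T.toAddSubgroup ⊓ perp w') < Nat.card ↥T.toAddSubgroup := by
    have hss : ((T.toAddSubgroup ⊓ perp w' : AddSubgroup Vn) : Set Vn) ⊂ (T.toAddSubgroup : Set Vn) := by
      refine ⟨fun x hx => hx.1, fun hle => hi ?_⟩
      have h1 : φ₀ ⬝ᵥ w' = 0 := (hle hφ₀T).2
      simpa [w'] using h1
    exact Set.ncard_lt_ncard hss
  have h2 := hTcard w' hw'0
  have := Nat.mul_lt_mul_of_pos_right hlt (Fintype.card_pos (α := F))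
  omega

end Cfsg.Agent.H64.SLIndex
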