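import Mathlib
import Cfsg.Agent.H64.SLIndex.Partial

set_option autoImplicit false

namespace Cfsg.Agent.H64.SLIndex

open Matrix MulAction

open scoped IsMulCommutative

variable {n : ℕ} {F : Type*} [Field F] [Fintype F]

local notation "SLn" => Matrix.SpecialLinearGroup (Fin n) F
local notation "Vn" => (Fin n → F)
local notation "q" => Fintype.card F

theorem transpose_inv_comm (g : SLn) : (g.transpose)⁻¹ = (g⁻¹).transpose := by
  refine inv_eq_of_mul_eq_one_right (Subtype.ext ?_)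
  show ((g : Matrix (Fin n) (Fin n) F))ᵀ * (((g⁻¹ : SLn) : Matrix (Fin n) (Fin n) F))ᵀ = 1
  rw [← transpose_mul, ← Matrix.SpecialLinearGroup.coe_mul, inv_mul_cancel,
    Matrix.SpecialLinearGroup.coe_one, transpose_one]

/-- The inverse transpose automorphism. -/
def invTr : SLn ≃* SLn where
  toFun g := (g⁻¹).transpose
  invFun g := (g⁻¹).transpose
  left_inv g := by
    show ((g⁻¹).transpose)⁻¹.transpose = g
    rw [transpose_inv_comm, inv_inv]
    exact Subtype.ext (transpose_transpose _)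
  right_inv g := by
    show ((g⁻¹).transpose)⁻¹.transpose = g
    rw [transpose_inv_comm, inv_inv]
    exact Subtype.ext (transpose_transpose _)
  map_mul' g h := by
    rw [_root_.mul_inv_rev]
    apply Subtype.ext
    show (((h⁻¹ * g⁻¹ : SLn) : Matrix (Fin n) (Fin n) F))ᵀ = _
    rw [Matrix.SpecialLinearGroup.coe_mul, transpose_mul]
    rfl

theorem invTr_tv (v φ : Vn) (h : φ ⬝ᵥ v = 0) :
    invTr (tv v φ h) = tv (-φ) v (by rw [dotProduct_neg, dotProduct_comm, h, neg_zero]) := by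
  show ((tv v φ h)⁻¹).transpose = _
  rw [tv_inv]
  apply Subtype.ext
  show ((1 : Matrix (Fin n) (Fin n) F) + vecMulVec v (-φ))ᵀ = 1 + vecMulVec (-φ) v
  rw [transpose_add, transpose_one, transpose_vecMulVec]

variable (H : Subgroup (Matrix.SpecialLinearGroup (Fin n) F))

/-- All-or-none for transvections with a given centre. -/
theorem tv_mem_all_or_none (hn : 3 ≤ n) (hH : H ≠ ⊤)
    (hidx : H.index < ∑ i ∈ Finset.range n, q ^ i) {v φ : Vn} (hv : v ≠ 0) (hφ : φ ≠ 0)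
    (h : φ ⬝ᵥ v = 0) (hmem : tv v φ h ∈ H) (ψ : Vn) (h' : ψ ⬝ᵥ v = 0) : tv v ψ h' ∈ H := by
  set ω₀ : SLn ⧸ H := ((1 : SLn) : SLn ⧸ H)
  have hiff : ∀ x : SLn, x • ω₀ = ω₀ ↔ x ∈ H := fun x => by
    rw [MulAction.Quotient.smul_coe, smul_eq_mul, mul_one, QuotientGroup.eq, mul_one, inv_mem_iff]
  rcases stabilizer_bot_or_top H hn hH hidx hv ω₀ with hs | hs
  · exfalso
    have : tvMk v φ h ∈ stabilizer (tvGroup v) ω₀ := (hiff _).mpr hmem
    rw [hs, Subgroup.mem_bot, tvMk_eq_one_iff hv] at this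
    exact hφ this
  · have : tvMk v ψ h' ∈ stabilizer (tvGroup v) ω₀ := hs ▸ Subgroup.mem_top _
    exact (hiff _).mp this

/-- A proper subgroup of small index contains no transvection. -/
theorem tv_notMem (hn : 3 ≤ n) (hH : H ≠ ⊤) (hidx : H.index < ∑ i ∈ Finset.range n, q ^ i)
    {v φ : Vn} (hv : v ≠ 0) (hφ : φ ≠ 0) (h : φ ⬝ᵥ v = 0) : tv v φ h ∉ H := by
  intro hmem
  apply hH
  set H' := H.map (invTr (n := n) (F := F)).toMonoidHom with hH'def
  have hH' : H' ≠ ⊤ := by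
    intro h'
    apply hH
    have := congrArg (Subgroup.comap (invTr (n := n) (F := F)).toMonoidHom) h'
    rwa [hH'def, Subgroup.comap_map_eq_self_of_injective (invTr (n := n) (F := F)).injective,
      Subgroup.comap_top] at this
  have hidx' : H'.index < ∑ i ∈ Finset.range n, q ^ i := by
    rw [hH'def]
    rwa [Subgroup.index_map_of_bijective (invTr (n := n) (F := F)).bijective]
  have hcol : ∀ (a b c : Vn) (hab : b ⬝ᵥ a = 0) (hcb : b ⬝ᵥ c = 0), a ≠ 0 → b ≠ 0 →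
      tv a b hab ∈ H → tv c b hcb ∈ H := by
    intro a b c hab hcb ha hb hm
    have h1 : invTr (tv a b hab) ∈ H' := Subgroup.mem_map_of_mem _ hm
    rw [invTr_tv] at h1
    have h2 := tv_mem_all_or_none H' hn hH' hidx' (neg_ne_zero.mpr hb) ha _ h1 c
      (by rw [dotProduct_neg, dotProduct_comm, hcb, neg_zero])
    rw [← invTr_tv c b hcb] at h2
    exact (Subgroup.mem_map_iff_mem (invTr (n := n) (F := F)).injective).mp h2
  refine eq_top_of_tv_mem H fun u ψ hu => ?_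
  by_cases hψ0 : ψ = 0
  · subst hψ0; rw [tv_zero]; exact one_mem _
  by_cases hu0 : u = 0
  · subst hu0; rw [tv_zero_left]; exact one_mem _
  obtain ⟨χ, hχ0, hχv, hχu⟩ := exists_perp_two hn v u
  have h1 : tv v χ hχv ∈ H := tv_mem_all_or_none H hn hH hidx hv hφ h hmem χ hχv
  have h2 : tv u χ hχu ∈ H := hcol v χ u hχv hχu hv hχ0 h1
  exact tv_mem_all_or_none H hn hH hidx hu0 hχ0 hχu h2 ψ hu

omit [Fintype F] in
theorem conj_notMem {v φ : Vn} (h : φ ⬝ᵥ v = 0) (hv : v ≠ 0) (hφ : φ ≠ 0)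
    (hno : ∀ (a b : Vn) (hab : b ⬝ᵥ a = 0), a ≠ 0 → b ≠ 0 → tv a b hab ∉ H) (g : SLn) :
    g * tv v φ h * g⁻¹ ∉ H := by
  rw [conj_tv]
  refine hno _ _ _ ?_ ?_
  · intro h0
    apply hv
    have := congrArg (((g⁻¹ : SLn) : Matrix (Fin n) (Fin n) F) *ᵥ ·) h0
    simp only [mulVec_mulVec, ← Matrix.SpecialLinearGroup.coe_mul, inv_mul_cancel,
      Matrix.SpecialLinearGroup.coe_one, one_mulVec, mulVec_zero] at this
    exact this
  · intro h0
    apply hφ
    have := congrArg (fun x => x ᵥ* (g : Matrix (Fin n) (Fin n) F)) h0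
    simp only [vecMul_vecMul, ← Matrix.SpecialLinearGroup.coe_mul, inv_mul_cancel,
      Matrix.SpecialLinearGroup.coe_one, vecMul_one, zero_vecMul] at this
    exact this

/-- In a subgroup of small index the transvections of a centre act regularly on the cosets. -/
theorem exists_unique_tv_mul_mem (hn : 3 ≤ n) (hH : H ≠ ⊤)
    (hidx : H.index < ∑ i ∈ Finset.range n, q ^ i) {v : Vn} (hv : v ≠ 0) (x : SLn) :
    ∃! φ : Vn, ∃ h : φ ⬝ᵥ v = 0, tv v φ h * x ∈ H := by
  classical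
  have hno : ∀ (a b : Vn) (hab : b ⬝ᵥ a = 0), a ≠ 0 → b ≠ 0 → tv a b hab ∉ H :=
    fun a b hab ha hb => tv_notMem H hn hH hidx ha hb hab
  obtain ⟨c, -, hm, hconst, -⟩ := equalFix_facts H hn hH hidx
  have hc0 : c = 0 := by
    obtain ⟨φ, hφ, hφv, -⟩ := exists_perp_two hn v v
    rw [← hconst v φ hφv hv hφ, Nat.card_eq_zero]
    left
    constructor
    rintro ⟨ω, hω⟩
    obtain ⟨g, rfl⟩ := QuotientGroup.mk_surjective ω
    rw [mem_fixedBy, MulAction.Quotient.smul_coe, smul_eq_mul, QuotientGroup.eq] at hω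
    have h1 := H.inv_mem hω
    rw [_root_.mul_inv_rev, inv_inv, ← mul_assoc] at h1
    have h2 := conj_notMem H hφv hv hφ hno g⁻¹
    rw [inv_inv] at h2
    exact h2 h1
  let e : perp v → SLn ⧸ H := fun φ => ((tv v φ.1 φ.2 : SLn) : SLn ⧸ H)
  have hinj : Function.Injective e := by
    intro a b hab
    have ha : a.1 ⬝ᵥ v = 0 := a.2
    have hb : b.1 ⬝ᵥ v = 0 := b.2
    have h1 : (tv v a.1 ha)⁻¹ * tv v b.1 hb ∈ H := QuotientGroup.eq.mp hab
    rw [tv_inv, tv_mul_right] at h1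
    by_contra hne
    exact hno _ _ _ hv (fun h0 => hne (Subtype.ext (by
      rwa [neg_add_eq_zero] at h0))) h1
  have hbij : Function.Bijective e :=
    (Nat.bijective_iff_injective_and_card e).mpr ⟨hinj, by
      rw [card_perp hv]
      show _ = H.index
      omega⟩
  obtain ⟨ψ, hψ⟩ := hbij.2 ((x : SLn) : SLn ⧸ H)
  have hψv : ψ.1 ⬝ᵥ v = 0 := ψ.2
  have h1 : (tv v ψ.1 hψv)⁻¹ * x ∈ H := QuotientGroup.eq.mp hψ
  rw [tv_inv] at h1
  refine ⟨-ψ.1, ⟨_, h1⟩, ?_⟩
  rintro φ ⟨h, hmem⟩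
  have h2 := H.mul_mem hmem (H.inv_mem h1)
  rw [_root_.mul_inv_rev, ← mul_assoc, mul_inv_cancel_right, tv_inv, tv_mul_right] at h2
  by_contra hne
  exact hno _ _ _ hv (fun h0 => hne (by rw [neg_neg] at h0; exact eq_neg_of_add_eq_zero_left h0)) h2

end Cfsg.Agent.H64.SLIndex
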