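import Mathlib
import Cfsg.Agent.H64.SLIndex.Regular

set_option autoImplicit false

namespace Cfsg.Agent.H64.SLIndex

open Matrix

variable {n : ℕ} {F : Type*} [Field F] [Fintype F]

local notation "SLn" => Matrix.SpecialLinearGroup (Fin n) F
local notation "Vn" => (Fin n → F)
local notation "q" => Fintype.card F

/-- The root element `1 + s E_ij`. -/
def rootX (i j : Fin n) (hij : i ≠ j) (s : F) : Matrix.SpecialLinearGroup (Fin n) F :=
  tv (Pi.single i 1) (Pi.single j s) (by simp [hij.symm])

/-- A proper subgroup of `SL_n` has index at least `1 + q + ⋯ + q^(n-1)`, for `n ≥ 3`, `(n,q) ≠ (4,2)`. -/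
theorem geom_sum_le_index (hn : 3 ≤ n) (hexc : ¬ (n = 4 ∧ q = 2))
    (H : Subgroup (Matrix.SpecialLinearGroup (Fin n) F)) (hH : H ≠ ⊤) :
    ∑ i ∈ Finset.range n, q ^ i ≤ H.index := by
  classical
  by_contra! hidx
  let o : Fin n := ⟨0, by omega⟩
  have ho : (Pi.single o 1 : Vn) ≠ 0 := by simp
  have hreg := fun x : SLn => exists_unique_tv_mul_mem H hn hH hidx ho x
  choose f hf huniq using hreg
  have hf0 : ∀ x, f x o = 0 := fun x => by
    obtain ⟨h, -⟩ := hf x
    simpa using h
  -- cocycle identity
  have hfmul : ∀ x y : SLn, (x : Matrix (Fin n) (Fin n) F) *ᵥ Pi.single o 1 = Pi.single o 1 →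
      f (x * y) = f x + f y ᵥ* ((x⁻¹ : SLn) : Matrix (Fin n) (Fin n) F) := by
    intro x y hx
    obtain ⟨h1, h1'⟩ := hf x
    obtain ⟨h2, h2'⟩ := hf y
    have h3 := dotProduct_conj x h2
    rw [hx] at h3
    symm
    refine huniq (x * y) _ ⟨by rw [add_dotProduct, h1, h3, add_zero], ?_⟩
    have h4 := H.mul_mem h1' h2'
    have h5 : tv (Pi.single o 1) (f x) h1 * x * (tv (Pi.single o 1) (f y) h2 * y) =
        tv (Pi.single o 1) (f x) h1 * (x * tv (Pi.single o 1) (f y) h2 * x⁻¹) * (x * y) := by group
    rw [h5, conj_tv, tv_congr _ h3 hx rfl, tv_mul_right] at h4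
    exact h4
  have hfix : ∀ (i j : Fin n) (hij : i ≠ j) (s : F), j ≠ o →
      (rootX i j hij s : Matrix (Fin n) (Fin n) F) *ᵥ Pi.single o 1 = Pi.single o 1 := by
    intro i j hij s hjo
    rw [rootX, tv_mulVec]
    simp [hjo.symm]
  have hact : ∀ (i j : Fin n) (hij : i ≠ j) (s : F) (φ : Vn),
      φ ᵥ* (((rootX i j hij s)⁻¹ : SLn) : Matrix (Fin n) (Fin n) F) = φ - φ i • Pi.single j s := by
    intro i j hij s φ
    rw [rootX, tv_inv, tv_vecMul]
    simp [sub_eq_add_neg]
  -- a root element whose lift is a transvection
  have hgood : ∀ (i j : Fin n) (hij : i ≠ j), i ≠ o → j ≠ o →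
      (∀ k, k ≠ j → f (rootX i j hij 1) k = 0) → False := by
    intro i j hij hio hjo hk
    obtain ⟨h, hm⟩ := hf (rootX i j hij 1)
    have hfe : f (rootX i j hij 1) = f (rootX i j hij 1) j • Pi.single j 1 := by
      funext k
      by_cases hkj : k = j
      · subst hkj; simp
      · simp [hk k hkj, hkj]
    set a := f (rootX i j hij 1) j
    have hj0 : (Pi.single j 1 : Vn) ⬝ᵥ (Pi.single o 1 : Vn) = 0 := by simp [hjo]
    have e1 : tv (Pi.single o 1) (f (rootX i j hij 1)) h =
        tv (a • Pi.single o 1) (Pi.single j 1) (by rw [dotProduct_smul, hj0, smul_zero]) := by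
      rw [tv_smul (Pi.single o 1) (Pi.single j 1) a hj0]
      exact tv_congr _ _ rfl hfe
    rw [e1, rootX, tv_mul_left] at hm
    refine tv_notMem H hn hH hidx ?_ (by simp) _ hm
    intro h0
    have := congrFun h0 i
    simp [hio] at this
  have hcomm : ∀ (i j k l : Fin n) (hij : i ≠ j) (hkl : k ≠ l) (s u : F), j ≠ o → l ≠ o → j ≠ k → i ≠ l →
      f (rootX k l hkl u) i • (Pi.single j s : Vn) = f (rootX i j hij s) k • (Pi.single l u : Vn) := by
    intro i j k l hij hkl s u hjo hlo hjk hil
    have hcm : rootX i j hij s * rootX k l hkl u = rootX k l hkl u * rootX i j hij s := by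
      refine mul_inv_eq_iff_eq_mul.mp ?_
      rw [rootX, rootX, conj_tv]
      refine tv_congr _ _ ?_ ?_
      · rw [tv_mulVec]; simp [hjk]
      · rw [tv_inv, tv_vecMul]; simp [Ne.symm hil, hil]
    have h1 := hfmul _ (rootX k l hkl u) (hfix i j hij s hjo)
    have h2 := hfmul _ (rootX i j hij s) (hfix k l hkl u hlo)
    rw [hcm, h2, hact, hact] at h1
    funext r
    have h3 := congrFun h1 r
    simp only [Pi.add_apply, Pi.sub_apply] at h3
    linear_combination h3
  let i : Fin n := ⟨1, by omega⟩
  let j : Fin n := ⟨2, by omega⟩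
  have hij : i ≠ j := by simp [i, j, Fin.ext_iff]
  have hio : i ≠ o := by simp [i, o, Fin.ext_iff]
  have hjo : j ≠ o := by simp [j, o, Fin.ext_iff]
  -- conjugation
  have hconj : ∀ (g : SLn) (k l : Fin n) (hkl : k ≠ l) (s : F) (k' l' : Fin n) (hkl' : k' ≠ l') (s' : F),
      l ≠ o → l' ≠ o → (g : Matrix (Fin n) (Fin n) F) *ᵥ Pi.single o 1 = Pi.single o 1 →
      g * rootX k l hkl s * g⁻¹ = rootX k' l' hkl' s' → ∀ m, m ≠ l' →
      f (rootX k' l' hkl' s') m = (f (rootX k l hkl s) ᵥ* ((g⁻¹ : SLn) : Matrix (Fin n) (Fin n) F)) m := by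
    intro g k l hkl s k' l' hkl' s' hlo hlo' hg heq m hm
    have h1 := hfmul g (rootX k l hkl s) hg
    have h2 := hfmul (rootX k' l' hkl' s') g (hfix k' l' hkl' s' hlo')
    rw [← heq, inv_mul_cancel_right, h1, heq, hact] at h2
    have := congrFun h2 m
    simp [hm] at this
    linear_combination (-1 : F) * this
  by_cases hn3 : n = 3
  · -- three-dimensional case
    have hfin : ∀ k : Fin n, k ≠ j → k = o ∨ k = i := by
      intro k hk
      simp only [ne_eq, Fin.ext_iff, o, i, j] at hk ⊢
      omega
    refine hgood i j hij hio hjo fun k hk => ?_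
    rcases hfin k hk with rfl | rfl
    · exact hf0 _
    by_cases h2 : (2 : F) = 0
    · have h1 : rootX i j hij (1 : F) * rootX i j hij 1 = 1 := by
        rw [rootX, tv_mul_right]
        refine (tv_congr _ (zero_dotProduct _) rfl ?_).trans (tv_zero _)
        rw [← Pi.single_add, one_add_one_eq_two, h2, Pi.single_zero]
      have h3 := hfmul _ (rootX i j hij 1) (hfix i j hij 1 hjo)
      have h4 : f (1 : SLn) = 0 :=
        (huniq 1 0 ⟨zero_dotProduct _, by rw [tv_zero, one_mul]; exact one_mem _⟩).symm
      rw [h1, h4, hact] at h3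
      have h5 := congrFun h3 j
      simp at h5
      linear_combination h5 + f (rootX i j hij 1) j * h2
    · have hm1 : (-1 : F) ≠ 0 := by simp
      let g : SLn := Matrix.SpecialLinearGroup.diag2n hij (-1) hm1
      have hginv : g⁻¹ = g := by
        refine inv_eq_of_mul_eq_one_right (Subtype.ext ?_)
        rw [Matrix.SpecialLinearGroup.coe_mul, Matrix.SpecialLinearGroup.diag2n_coe, diagonal_mul_diagonal,
          Matrix.SpecialLinearGroup.coe_one, ← diagonal_one]
        congr 1
        funext k
        split_ifs <;> norm_num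
      have hg : ∀ k : Fin n, (g : Matrix (Fin n) (Fin n) F) *ᵥ Pi.single k 1 =
          (if k = i then -1 else if k = j then (-1 : F)⁻¹ else 1) • (Pi.single k 1 : Vn) :=
        fun k => Cfsg.Agent.H1.diag2n_smul_single hij hm1 k
      have hgo : (g : Matrix (Fin n) (Fin n) F) *ᵥ Pi.single o 1 = Pi.single o 1 := by
        rw [hg, if_neg hio.symm, if_neg hjo.symm, one_smul]
      have hgX : g * rootX i j hij 1 * g⁻¹ = rootX i j hij (1 : F) := by
        apply Subtype.ext
        simp only [rootX, Matrix.SpecialLinearGroup.coe_mul, tv_coe, hginv]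
        rw [Matrix.SpecialLinearGroup.diag2n_coe, mul_add, mul_one, add_mul, diagonal_mul_diagonal,
          ← diagonal_one]
        congr 1
        · congr 1
          funext k
          split_ifs <;> norm_num
        · ext a b
          rw [Matrix.mul_diagonal, Matrix.diagonal_mul, vecMulVec_apply]
          by_cases ha : a = i
          · subst ha
            by_cases hb : b = j
            · subst hb; simp [hij, hij.symm]
            · simp [hb]
          · simp [ha]
      have h6 := hconj g i j hij 1 i j hij 1 hjo hjo hgo hgX i hij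
      rw [hginv] at h6
      have h7 : (f (rootX i j hij 1) ᵥ* (g : Matrix (Fin n) (Fin n) F)) i = - f (rootX i j hij 1) i := by
        rw [Matrix.SpecialLinearGroup.diag2n_coe, vecMul_diagonal]; simp
      rw [h7] at h6
      have h8 : (2 : F) * f (rootX i j hij 1) i = 0 := by linear_combination h6
      exact (mul_eq_zero.mp h8).resolve_left h2
  by_cases hn4 : n = 4
  · -- four-dimensional case
    let m : Fin n := ⟨3, by omega⟩
    have him : i ≠ m := by simp [i, m, Fin.ext_iff]
    have hjm : j ≠ m := by simp [j, m, Fin.ext_iff]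
    have hmo : m ≠ o := by simp [m, o, Fin.ext_iff]
    have hfin : ∀ k : Fin n, k ≠ j → k = o ∨ k = i ∨ k = m := by
      intro k hk
      simp only [ne_eq, Fin.ext_iff, o, i, j, m] at hk ⊢
      omega
    set c := f (rootX m j hjm.symm 1) i with hcdef
    have hA : ∀ s : F, f (rootX i j hij s) m = s * c := by
      intro s
      have := congrFun (hcomm i j m j hij hjm.symm s 1 hjo hjo hjm hij) j
      simp at this
      rw [hcdef]; linear_combination (-1 : F) * this
    have hB : ∀ u : F, f (rootX m j hjm.symm u) i = u * c := by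
      intro u
      have := congrFun (hcomm i j m j hij hjm.symm 1 u hjo hjo hjm hij) j
      simp at this
      rw [hA, one_mul] at this
      linear_combination this
    have hc : c = 0 := by
      by_cases h2 : (2 : F) = 0
      · -- use a diagonal element with `t ^ 2 ≠ 1`
        obtain ⟨t, ht0, ht1⟩ : ∃ t : F, t ≠ 0 ∧ t ≠ 1 := by
          by_contra! h
          have : q ≤ 2 := by
            rw [← Finset.card_univ]
            refine (Finset.card_le_card (t := {(0 : F), 1}) fun x _ => ?_).trans Finset.card_le_two
            by_cases hx : x = 0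
            · simp [hx]
            · simp [h x hx]
          exact hexc ⟨hn4, le_antisymm this Fintype.one_lt_card⟩
        have ht2 : t ^ 2 ≠ 1 := fun h => ht1 (by
          have : (t - 1) ^ 2 = 0 := by linear_combination h + (1 - t) * h2
          exact sub_eq_zero.mp (pow_eq_zero_iff (two_ne_zero) |>.mp this))
        let g : SLn := Matrix.SpecialLinearGroup.diag2n hjm t ht0
        let g' : SLn := Matrix.SpecialLinearGroup.diag2n hjm t⁻¹ (inv_ne_zero ht0)
        have hgg : g⁻¹ = g' := by
          refine inv_eq_of_mul_eq_one_right (Subtype.ext ?_)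
          rw [Matrix.SpecialLinearGroup.coe_mul, Matrix.SpecialLinearGroup.diag2n_coe,
            Matrix.SpecialLinearGroup.diag2n_coe, diagonal_mul_diagonal,
            Matrix.SpecialLinearGroup.coe_one, ← diagonal_one]
          congr 1
          funext k
          split_ifs <;> simp [ht0]
        have hgo : (g : Matrix (Fin n) (Fin n) F) *ᵥ Pi.single o 1 = Pi.single o 1 := by
          have := Cfsg.Agent.H1.diag2n_smul_single hjm ht0 o
          rw [if_neg hjo.symm, if_neg hmo.symm, one_smul] at this
          exact this
        have hgX : g * rootX i j hij 1 * g⁻¹ = rootX i j hij t⁻¹ := by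
          apply Subtype.ext
          simp only [rootX, Matrix.SpecialLinearGroup.coe_mul, tv_coe, hgg]
          rw [Matrix.SpecialLinearGroup.diag2n_coe, Matrix.SpecialLinearGroup.diag2n_coe, mul_add,
            mul_one, add_mul, diagonal_mul_diagonal, ← diagonal_one]
          congr 1
          · congr 1
            funext k
            split_ifs <;> simp [ht0]
          · ext a b
            rw [Matrix.mul_diagonal, Matrix.diagonal_mul, vecMulVec_apply, vecMulVec_apply]
            by_cases ha : a = i
            · subst ha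
              by_cases hb : b = j
              · subst hb; simp [hij, him]
              · simp [hb]
            · simp [ha]
        have h6 := hconj g i j hij 1 i j hij t⁻¹ hjo hjo hgo hgX m hjm.symm
        rw [hgg, Matrix.SpecialLinearGroup.diag2n_coe, vecMul_diagonal, hA, hA] at h6
        rw [if_neg hjm.symm, if_pos rfl, inv_inv, one_mul] at h6
        have h9 : c * (1 - t ^ 2) = 0 := by
          have h10 : t * (t⁻¹ * c) = c := by rw [← mul_assoc, mul_inv_cancel₀ ht0, one_mul]
          linear_combination t * h6 - h10
        exact (mul_eq_zero.mp h9).resolve_right (sub_ne_zero.mpr (Ne.symm ht2))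
      · -- use a monomial element exchanging `i` and `m`
        let g : SLn := rootX i m him 1 * rootX m i him.symm (-1) * rootX i m him 1
        have hgs : ∀ k : Fin n, (g : Matrix (Fin n) (Fin n) F) *ᵥ Pi.single k 1 =
            if k = i then -(Pi.single m 1 : Vn) else if k = m then Pi.single i 1 else Pi.single k 1 := by
          intro k
          simp only [g, rootX, Matrix.SpecialLinearGroup.coe_mul, ← mulVec_mulVec, tv_mulVec]
          rcases eq_or_ne k i with rfl | hki
          · funext r
            simp [Pi.single_apply]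
            split_ifs <;> simp_all
          rcases eq_or_ne k m with rfl | hkm
          · funext r
            simp [Pi.single_apply]
            split_ifs <;> simp_all
          · simp [hki, hkm, hki.symm, hkm.symm]
        have hgo : (g : Matrix (Fin n) (Fin n) F) *ᵥ Pi.single o 1 = Pi.single o 1 := by
          rw [hgs, if_neg hio.symm, if_neg hmo.symm]
        have hdot : ∀ (φ : Vn) (k : Fin n),
            (φ ᵥ* ((g⁻¹ : SLn) : Matrix (Fin n) (Fin n) F)) ⬝ᵥ
              ((g : Matrix (Fin n) (Fin n) F) *ᵥ Pi.single k 1) = φ k := by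
          intro φ k
          rw [dotProduct_mulVec, vecMul_vecMul, ← Matrix.SpecialLinearGroup.coe_mul, inv_mul_cancel,
            Matrix.SpecialLinearGroup.coe_one, vecMul_one]
          simp
        have hcov : (Pi.single j 1 : Vn) ᵥ* ((g⁻¹ : SLn) : Matrix (Fin n) (Fin n) F) = Pi.single j 1 := by
          funext r
          by_cases hrm : r = m
          · subst hrm
            have := hdot (Pi.single j 1) i
            rw [hgs, if_pos rfl] at this
            simpa [hij, hjm] using this
          by_cases hri : r = i
          · subst hri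
            have := hdot (Pi.single j 1) m
            rw [hgs, if_neg him.symm, if_pos rfl] at this
            simpa [hij, hjm, Ne.symm hjm, Ne.symm hij] using this
          have := hdot (Pi.single j 1) r
          rw [hgs, if_neg hri, if_neg hrm] at this
          simpa using this
        have hgX : g * rootX i j hij 1 * g⁻¹ = rootX m j hjm.symm (-1) := by
          rw [rootX, conj_tv]
          apply Subtype.ext
          rw [rootX, tv_coe, tv_coe, hgs, if_pos rfl, hcov]
          congr 1
          ext a b
          simp [vecMulVec_apply, Pi.single_apply]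
        have h6 := hconj g i j hij 1 m j hjm.symm (-1) hjo hjo hgo hgX i hij
        have h7 := hdot (f (rootX i j hij 1)) m
        rw [hgs, if_neg him.symm, if_pos rfl] at h7
        simp only [dotProduct_single, mul_one] at h7
        rw [h7, hA, hB] at h6
        have h8 : (2 : F) * c = 0 := by linear_combination (-1 : F) * h6
        exact (mul_eq_zero.mp h8).resolve_left h2
    refine hgood i j hij hio hjo fun k hk => ?_
    rcases hfin k hk with rfl | rfl | rfl
    · exact hf0 _
    · have := congrFun (hcomm i j i m hij him 1 1 hjo hmo hij.symm him) m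
      simp [hjm.symm] at this
      linear_combination (-1 : F) * this
    · rw [hA, hc, mul_zero]
  -- `n ≥ 5`
  refine hgood i j hij hio hjo fun k hk => ?_
  by_cases hko : k = o
  · subst hko; exact hf0 _
  obtain ⟨l, hlo, hli, hlj, hlk⟩ : ∃ l : Fin n, l ≠ o ∧ l ≠ i ∧ l ≠ j ∧ l ≠ k := by
    by_cases h3 : k.1 = 3
    · refine ⟨⟨4, by omega⟩, ?_, ?_, ?_, ?_⟩ <;> simp [o, i, j, Fin.ext_iff, h3]
    · refine ⟨⟨3, by omega⟩, ?_, ?_, ?_, ?_⟩ <;> simp [o, i, j, Fin.ext_iff, Ne.symm h3]
  have := congrFun (hcomm i j k l hij hlk.symm 1 1 hjo hlo (Ne.symm hk) hli.symm) l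
  simp [hlj] at this
  linear_combination (-1 : F) * this

end Cfsg.Agent.H64.SLIndex
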