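import Mathlib
import Cfsg.Agent.H64.SLIndex.Main

set_option autoImplicit false

namespace Cfsg.Agent.H64.SLIndex

open Matrix

variable {F : Type*} [Field F] [Fintype F]

/-- The minimal index of a proper subgroup of `PSL_n(q)`, `n ≥ 3`, `(n, q) ≠ (4, 2)`. -/
theorem psl_min_index {q : ℕ} (hF : Fintype.card F = q) (n : ℕ) (hn : 3 ≤ n) (hexc : ¬ (n = 4 ∧ q = 2)) :
    (∀ H : Subgroup (Matrix.ProjectiveSpecialLinearGroup (Fin n) F), H ≠ ⊤ →
      (q ^ n - 1) / (q - 1) ≤ H.index) ∧
    (∃ H : Subgroup (Matrix.ProjectiveSpecialLinearGroup (Fin n) F),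
      H.index = (q ^ n - 1) / (q - 1)) := by
  subst hF
  have hgeo : (Fintype.card F ^ n - 1) / (Fintype.card F - 1) =
      ∑ i ∈ Finset.range n, Fintype.card F ^ i := (Nat.geomSum_eq Fintype.one_lt_card n).symm
  rw [hgeo]
  let π : Matrix.SpecialLinearGroup (Fin n) F →* Matrix.ProjectiveSpecialLinearGroup (Fin n) F :=
    QuotientGroup.mk' _
  have hπ : Function.Surjective π := QuotientGroup.mk'_surjective _
  constructor
  · intro H hH
    rw [← Subgroup.index_comap_of_surjective H hπ]
    refine geom_sum_le_index hn hexc _ fun h => hH (eq_top_iff.mpr fun x _ => ?_)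
    obtain ⟨y, rfl⟩ := hπ x
    have : y ∈ H.comap π := h ▸ Subgroup.mem_top y
    exact this
  · let i : Fin n := ⟨0, by omega⟩
    let pt : Projectivization F (Fin n → F) :=
      Projectivization.mk F (Pi.single i 1) (Pi.single_ne_zero_iff.2 one_ne_zero)
    let S := MulAction.stabilizer (Matrix.SpecialLinearGroup (Fin n) F) pt
    have : Nontrivial (Fin n) := Fin.nontrivial_iff_two_le.mpr (by omega)
    refine ⟨S.map π, ?_⟩
    rw [Subgroup.index_map_eq S hπ]
    · rw [MulAction.index_stabilizer_of_transitive, Projectivization.card_of_finrank F (Fin n → F)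
        (Module.finrank_fin_fun F), Nat.card_eq_fintype_card]
    · intro x hx
      have hx' : x ∈ Subgroup.center (Matrix.SpecialLinearGroup (Fin n) F) :=
        (QuotientGroup.eq_one_iff x).mp hx
      obtain ⟨r, hr, hxr⟩ := Matrix.SpecialLinearGroup.mem_center_iff.mp hx'
      have hr0 : r ≠ 0 := by
        rintro rfl
        simp [zero_pow (show n ≠ 0 by omega)] at hr
      rw [MulAction.mem_stabilizer_iff, Projectivization.smul_mk, Projectivization.mk_eq_mk_iff']
      refine ⟨r, ?_⟩
      show _ = (x : Matrix (Fin n) (Fin n) F) *ᵥ Pi.single i 1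
      rw [← hxr, Matrix.scalar_apply, Matrix.diagonal_mulVec_single, mul_one, ← Pi.single_smul',
        smul_eq_mul, mul_one]

end Cfsg.Agent.H64.SLIndex
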